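import Mathlib
import Cfsg.Agent.Lib.Helper20.Subnormal

set_option autoImplicit false

namespace Cfsg.Agent.Lib.Helper20

theorem exists_fixed_in_subset {P α : Type*} [Group P] [MulAction P α] {p : ℕ} [Fact p.Prime] (hP : IsPGroup p P)
    (X : Set α) (hX : ∀ a : P, ∀ x ∈ X, a • x ∈ X) (hcard : ¬ p ∣ Nat.card X) :
    ∃ x ∈ X, ∀ a : P, a • x = x := by
  letI : MulAction P X :=
    { smul := fun a x => ⟨a • x.1, hX a x.1 x.2⟩
      one_smul := fun x => Subtype.ext (one_smul P x.1)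
      mul_smul := fun a b x => Subtype.ext (mul_smul a b x.1) }
  obtain ⟨x, hx⟩ := hP.nonempty_fixed_point_of_prime_not_dvd_card X hcard
  exact ⟨x.1, x.2, fun a => congrArg Subtype.val (hx a)⟩

theorem exists_fixed_ne_in_subset {P α : Type*} [Group P] [MulAction P α] {p : ℕ} [Fact p.Prime] (hP : IsPGroup p P)
    (X : Set α) [Finite X] (hX : ∀ a : P, ∀ x ∈ X, a • x ∈ X) (hcard : p ∣ Nat.card X) {x0 : α} (hx0 : x0 ∈ X)
    (hfix : ∀ a : P, a • x0 = x0) :
    ∃ x ∈ X, x ≠ x0 ∧ ∀ a : P, a • x = x := by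
  letI : MulAction P X :=
    { smul := fun a x => ⟨a • x.1, hX a x.1 x.2⟩
      one_smul := fun x => Subtype.ext (one_smul P x.1)
      mul_smul := fun a b x => Subtype.ext (mul_smul a b x.1) }
  obtain ⟨x, hx, hne⟩ := hP.exists_fixed_point_of_prime_dvd_card_of_fixed_point X hcard
    (a := ⟨x0, hx0⟩) (fun a => Subtype.ext (hfix a))
  exact ⟨x.1, x.2, fun h => hne (Subtype.ext h.symm), fun a => congrArg Subtype.val (hx a)⟩

variable {G : Type*} [Group G]

/-- conjugation action of a subgroup on the group -/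
@[reducible] def conjActOn (P : Subgroup G) : MulAction P G :=
  { smul := fun a x => a * x * a⁻¹
    one_smul := fun x => by change ((1 : P) : G) * x * ((1 : P) : G)⁻¹ = x; simp
    mul_smul := fun a b x => by
      change ((a * b : P) : G) * x * ((a * b : P) : G)⁻¹ = a * (b * x * (b : G)⁻¹) * (a : G)⁻¹
      simp [mul_assoc] }

/-- conjugation action of a subgroup on the subgroups -/
@[reducible] def cjActOn (P : Subgroup G) : MulAction P (Subgroup G) :=
  { smul := fun a S => cj (a : G) S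
    one_smul := fun S => cj_one S
    mul_smul := fun a b S => (cj_cj (a : G) (b : G) S).symm }

theorem exists_centralized_of_not_dvd {p : ℕ} [Fact p.Prime] (P : Subgroup G) (hP : IsPGroup p P) (X : Set G)
    (hX : ∀ a ∈ P, ∀ x ∈ X, a * x * a⁻¹ ∈ X) (hcard : ¬ p ∣ Nat.card X) :
    ∃ x ∈ X, ∀ a ∈ P, a * x * a⁻¹ = x := by
  letI := conjActOn P
  obtain ⟨x, hx, h⟩ := exists_fixed_in_subset hP X (fun a x hx => hX a a.2 x hx) hcard
  exact ⟨x, hx, fun a ha => h ⟨a, ha⟩⟩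

theorem exists_centralized_ne_one_of_dvd {p : ℕ} [Fact p.Prime] (P : Subgroup G) (hP : IsPGroup p P) (N : Subgroup G)
    [Finite N] (hN : P ≤ Subgroup.normalizer (N : Set G)) (hcard : p ∣ Nat.card N) :
    ∃ x ∈ N, x ≠ 1 ∧ ∀ a ∈ P, a * x * a⁻¹ = x := by
  letI := conjActOn P
  obtain ⟨x, hx, hne, h⟩ := exists_fixed_ne_in_subset hP (N : Set G)
    (fun a x hx => (Subgroup.le_normalizer_iff.1 hN) a a.2 x hx) hcard (x0 := 1) N.one_mem
    (fun a => by change (a : G) * 1 * (a : G)⁻¹ = 1; simp)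
  exact ⟨x, hx, hne, fun a ha => h ⟨a, ha⟩⟩

theorem exists_cj_fixed_of_not_dvd {p : ℕ} [Fact p.Prime] (P : Subgroup G) (hP : IsPGroup p P) (𝒮 : Set (Subgroup G))
    (h𝒮 : ∀ a ∈ P, ∀ S ∈ 𝒮, cj a S ∈ 𝒮) (hcard : ¬ p ∣ Nat.card 𝒮) :
    ∃ S ∈ 𝒮, ∀ a ∈ P, cj a S = S := by
  letI := cjActOn P
  obtain ⟨x, hx, h⟩ := exists_fixed_in_subset hP 𝒮 (fun a x hx => h𝒮 a a.2 x hx) hcard
  exact ⟨x, hx, fun a ha => h ⟨a, ha⟩⟩

end Cfsg.Agent.Lib.Helper20
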